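import Cfsg.Agent.H326.CGU.Lin
import Mathlib.LinearAlgebra.QuadraticForm.Basic

/-!
# Centralisers of isometries of quadratic forms (helper326)

`F` a finite field of any characteristic, `Q` a quadratic form with nondegenerate polar form.

* `quad_iff` : if `w` is an isometry of `Q` without fixed vectors and `g` commutes with `w` then `g` is an isometry of `Q`
  if and only if it is one of the polar form;
* `card_cent_quad_unitary`, `card_cent_quad_linear`, `card_cent_quad_linear'`;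
* `exists_even` : for `τ = 1` the degree is even (part of the unitary theorem).
-/

set_option autoImplicit false

namespace Cfsg.Agent.H326.CGU

open Module Polynomial

universe u v

variable {F : Type u} {V : Type v} [Field F] [AddCommGroup V] [Module F V]

/-- the polar form -/
theorem polar_isom_of_quad {Q : QuadraticForm F V} {g : V ≃ₗ[F] V} (hg : ∀ v, Q (g v) = Q v) (u v : V) :
    Q.polarBilin (g u) (g v) = Q.polarBilin u v := by
  rw [QuadraticMap.polarBilin_apply_apply, QuadraticMap.polarBilin_apply_apply, QuadraticMap.polar,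
    QuadraticMap.polar, ← map_add, hg, hg, hg]

theorem quad_iff [FiniteDimensional F V] {Q : QuadraticForm F V} {w : V ≃ₗ[F] V} (hw : ∀ v, Q (w v) = Q v)
    (h1 : ∀ v, w v = v → v = 0) {g : V ≃ₗ[F] V} (hg : ∀ v, g (w v) = w (g v)) :
    (∀ v, Q (g v) = Q v) ↔ ∀ u v, Q.polarBilin (g u) (g v) = Q.polarBilin u v := by
  refine ⟨fun h => polar_isom_of_quad h, fun h => ?_⟩
  have hadd : ∀ u v : V, Q (g (u - v)) - Q (u - v) = (Q (g u) - Q u) - (Q (g v) - Q v) := by
    intro u v
    have h2 : ∀ a b : V, Q (g (a + b)) - Q (a + b) = (Q (g a) - Q a) + (Q (g b) - Q b) := by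
      intro a b
      have h3 := h a b
      rw [QuadraticMap.polarBilin_apply_apply, QuadraticMap.polarBilin_apply_apply, QuadraticMap.polar,
        QuadraticMap.polar, ← map_add] at h3
      linear_combination h3
    have h4 := h2 (u - v) v
    rw [sub_add_cancel] at h4
    linear_combination -h4
  have hsurj : Function.Surjective ((w : V →ₗ[F] V) - 1 : Module.End F V) := by
    rw [← LinearMap.injective_iff_surjective, injective_iff_map_eq_zero]
    intro v hv
    apply h1
    exact sub_eq_zero.1 hv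
  intro v
  obtain ⟨x, hx⟩ := hsurj v
  have hx' : w x - x = v := hx
  rw [← hx']
  have h2 := hadd (w x) x
  rw [hg, hw, hw, sub_self] at h2
  exact sub_eq_zero.1 h2

/-- the polar form as a form in the sense of the main theorems -/
theorem polar_symm (Q : QuadraticForm F V) (u v : V) :
    Q.polarBilin v u = 1 * RingHom.id F (Q.polarBilin u v) := by
  rw [one_mul, RingHom.id_apply, QuadraticMap.polarBilin_apply_apply, QuadraticMap.polarBilin_apply_apply,
    QuadraticMap.polar_comm]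

section Main

variable [Fintype F] [FiniteDimensional F V]

theorem card_quad_eq {Q : QuadraticForm F V} {w : V ≃ₗ[F] V} (hw : ∀ v, Q (w v) = Q v) (h1 : ∀ v, w v = v → v = 0) :
    Nat.card {g : V ≃ₗ[F] V // (∀ v, Q (g v) = Q v) ∧ ∀ v, g (w v) = w (g v)} =
      Nat.card {g : V ≃ₗ[F] V // (∀ u v, Q.polarBilin (g u) (g v) = Q.polarBilin u v) ∧ ∀ v, g (w v) = w (g v)} := by
  refine Nat.card_congr (Equiv.subtypeEquivRight fun g => ?_)
  exact and_congr_left fun hg => quad_iff hw h1 hg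

/-- an endomorphism with irreducible minimal polynomial and a fixed vector is the identity -/
theorem fixed_of_irr {w : V ≃ₗ[F] V} (hirr : Irreducible (minpoly F (w : V →ₗ[F] V))) {v : V} (hv : w v = v)
    (h0 : v ≠ 0) (x : V) : w x = x := by
  have hint : IsIntegral F (w : V →ₗ[F] V) := Algebra.IsIntegral.isIntegral _
  have h1 : ∀ a : F[X], aeval (w : V →ₗ[F] V) a v = a.eval 1 • v := by
    intro a
    have hpow : ∀ n : ℕ, ((w : V →ₗ[F] V) ^ n) v = v := by
      intro n
      induction n with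
      | zero => simp
      | succ n ih =>
        rw [pow_succ, Module.End.mul_apply]
        show ((w : V →ₗ[F] V) ^ n) (w v) = v
        rw [hv, ih]
    induction a using Polynomial.induction_on' with
    | add p q hp hq => rw [map_add, LinearMap.add_apply, hp, hq, eval_add, add_smul]
    | monomial n a =>
      rw [aeval_monomial, Module.End.mul_apply, hpow, Module.algebraMap_end_apply, eval_monomial, one_pow, mul_one]
  have h2 := h1 (minpoly F (w : V →ₗ[F] V))
  rw [minpoly.aeval, LinearMap.zero_apply] at h2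
  have h3 : (minpoly F (w : V →ₗ[F] V)).IsRoot 1 := (smul_eq_zero.1 h2.symm).resolve_right h0
  have h4 : (minpoly F (w : V →ₗ[F] V)) = X - C 1 := by
    have h5 := Polynomial.dvd_iff_isRoot.2 h3
    have h6 : Associated (X - C (1 : F)) (minpoly F (w : V →ₗ[F] V)) :=
      (irreducible_X_sub_C (1 : F)).associated_of_dvd hirr h5
    exact (eq_of_monic_of_associated (monic_X_sub_C 1) (minpoly.monic hint) h6).symm
  have h7 := minpoly.aeval F (w : V →ₗ[F] V)
  rw [h4, map_sub, aeval_X, aeval_C, map_one] at h7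
  have h8 := LinearMap.congr_fun h7 x
  exact sub_eq_zero.1 h8

/-- **unitary type, quadratic forms** -/
theorem card_cent_quad_unitary (Q : QuadraticForm F V) (hnd : ∀ u, (∀ v, QuadraticMap.polar Q u v = 0) → u = 0)
    (w : V ≃ₗ[F] V) (hw : ∀ v, Q (w v) = Q v) (hirr : Irreducible (minpoly F (w : V →ₗ[F] V)))
    (hne : ∃ v, w (w v) ≠ v) :
    ∃ k m : ℕ, (minpoly F (w : V →ₗ[F] V)).natDegree = 2 * k ∧ finrank F V = 2 * k * m ∧
      Nat.card {g : V ≃ₗ[F] V // (∀ v, Q (g v) = Q v) ∧ ∀ v, g (w v) = w (g v)} =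
        guCard m (Fintype.card F ^ k) := by
  obtain ⟨s, m, _, h2, h3, h4⟩ := card_cent_unitary (τ := RingHom.id F) (fun _ => rfl) Q.polarBilin (ε := 1) (Or.inl rfl)
    (polar_symm Q) hnd w (fun u v => polar_isom_of_quad hw u v) hirr (Or.inr hne)
  obtain ⟨k, h5, h6⟩ := h3 rfl
  refine ⟨k, m, h5, by rw [h2, h5], ?_⟩
  rw [card_quad_eq hw, h4, h6]
  intro v hv
  by_contra h0
  obtain ⟨x, hx⟩ := hne
  apply hx
  rw [fixed_of_irr hirr hv h0 x, fixed_of_irr hirr hv h0 x]

/-- **unitary type, bilinear forms** -/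
theorem card_cent_bilin_unitary (B : LinearMap.BilinForm F V) {ε : F} (hε : ε = 1 ∨ ε = -1)
    (hs : ∀ u v, B v u = ε * B u v) (hnd : ∀ u, (∀ v, B u v = 0) → u = 0)
    (w : V ≃ₗ[F] V) (hw : ∀ u v, B (w u) (w v) = B u v) (hirr : Irreducible (minpoly F (w : V →ₗ[F] V)))
    (hne : ∃ v, w (w v) ≠ v) :
    ∃ k m : ℕ, (minpoly F (w : V →ₗ[F] V)).natDegree = 2 * k ∧ finrank F V = 2 * k * m ∧
      Nat.card {g : V ≃ₗ[F] V // (∀ u v, B (g u) (g v) = B u v) ∧ ∀ v, g (w v) = w (g v)} =
        guCard m (Fintype.card F ^ k) := by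
  obtain ⟨s, m, _, h2, h3, h4⟩ := card_cent_unitary (τ := RingHom.id F) (fun _ => rfl) B hε hs hnd w hw hirr
    (Or.inr hne)
  obtain ⟨k, h5, h6⟩ := h3 rfl
  exact ⟨k, m, h5, by rw [h2, h5], by rw [h4, h6]⟩

/-- **unitary type, hermitian forms**: `|F| = q ^ 2`; the order is `|GU_m(q ^ d)|` -/
theorem card_cent_herm_unitary {τ : F →+* F} (hτ2 : ∀ c, τ (τ c) = c) (hτ : τ ≠ RingHom.id F)
    (B : V →ₛₗ[τ] V →ₗ[F] F) (hs : ∀ u v, B v u = τ (B u v)) (hnd : ∀ u, (∀ v, B u v = 0) → u = 0)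
    (w : V ≃ₗ[F] V) (hw : ∀ u v, B (w u) (w v) = B u v) (hirr : Irreducible (minpoly F (w : V →ₗ[F] V)))
    {q : ℕ} (hq : Fintype.card F = q ^ 2) :
    ∃ m : ℕ, finrank F V = (minpoly F (w : V →ₗ[F] V)).natDegree * m ∧
      Nat.card {g : V ≃ₗ[F] V // (∀ u v, B (g u) (g v) = B u v) ∧ ∀ v, g (w v) = w (g v)} =
        guCard m (q ^ (minpoly F (w : V →ₗ[F] V)).natDegree) := by
  obtain ⟨s, m, h1, h2, _, h4⟩ := card_cent_unitary hτ2 B (ε := 1) (Or.inl rfl)
    (fun u v => by rw [one_mul, hs]) hnd w hw hirr (Or.inl hτ)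
  refine ⟨m, h2, ?_⟩
  rw [h4]
  congr 1
  apply Nat.pow_left_injective (n := 2) (by norm_num)
  show s ^ 2 = (q ^ (minpoly F (w : V →ₗ[F] V)).natDegree) ^ 2
  rw [h1, hq, ← pow_mul, ← pow_mul, mul_comm]

/-- **linear type, quadratic forms** -/
theorem card_cent_quad_linear (Q : QuadraticForm F V) (hnd : ∀ u, (∀ v, QuadraticMap.polar Q u v = 0) → u = 0)
    (w : V ≃ₗ[F] V) (hw : ∀ v, Q (w v) = Q v) (hf : ∀ v, w v = v → v = 0) {p p' : F[X]} (hp : Irreducible p)
    (hc : IsCoprime p p') (hmin : aeval (w : V →ₗ[F] V) (p * p') = 0)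
    (h1 : ∀ u v, aeval (w : V →ₗ[F] V) p u = 0 → aeval (w : V →ₗ[F] V) p v = 0 → QuadraticMap.polar Q u v = 0)
    (h2 : ∀ u v, aeval (w : V →ₗ[F] V) p' u = 0 → aeval (w : V →ₗ[F] V) p' v = 0 → QuadraticMap.polar Q u v = 0) :
    ∃ m : ℕ, finrank F V = 2 * p.natDegree * m ∧
      Nat.card {g : V ≃ₗ[F] V // (∀ v, Q (g v) = Q v) ∧ ∀ v, g (w v) = w (g v)} =
        glCard m (Fintype.card F ^ p.natDegree) := by
  rw [card_quad_eq hw hf]
  exact card_cent_linear (τ := RingHom.id F) Q.polarBilin (ε := 1) (polar_symm Q) hnd w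
    (fun u v => polar_isom_of_quad hw u v) hp hc hmin h1 h2

/-- linear type, quadratic forms, with the dual polynomial -/
theorem card_cent_quad_linear' (Q : QuadraticForm F V) (hnd : ∀ u, (∀ v, QuadraticMap.polar Q u v = 0) → u = 0)
    (w : V ≃ₗ[F] V) (hw : ∀ v, Q (w v) = Q v) (hf : ∀ v, w v = v → v = 0) {p : F[X]} (hp : Irreducible p)
    (hc : IsCoprime p p.reverse) (hmin : aeval (w : V →ₗ[F] V) (p * p.reverse) = 0) :
    ∃ m : ℕ, finrank F V = 2 * p.natDegree * m ∧
      Nat.card {g : V ≃ₗ[F] V // (∀ v, Q (g v) = Q v) ∧ ∀ v, g (w v) = w (g v)} =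
        glCard m (Fintype.card F ^ p.natDegree) := by
  rw [card_quad_eq hw hf]
  refine card_cent_linear' (τ := RingHom.id F) Q.polarBilin (ε := 1) (polar_symm Q) hnd w
    (fun u v => polar_isom_of_quad hw u v) hp ?_ ?_
  · rwa [Polynomial.map_id]
  · rwa [Polynomial.map_id]

end Main

end Cfsg.Agent.H326.CGU
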